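import Cfsg.Prelude.Def_GeometricClasses

/-!
Vocabulary for `Cfsg.Geo.tensorProductSubgroup n₁ n₂ e P` (class C4) and
`Cfsg.Geo.IsTensorFormStructure`.

* `vec e P z = P *ᵥ (z ∘ e)` : the linear equivalence `F^(n₁ × n₂) ≃ F^ι`;
* `pure e P x y = vec e P (x ⊗ y)`;
* `mem_tensorProductSubgroup_iff`, `mulVec_pure`, `form_pure`.
-/

set_option autoImplicit false

namespace Cfsg.Agent.H883.Tensor

open scoped Matrix Kronecker

variable {ι : Type} [Fintype ι] [DecidableEq ι] {F : Type*} [Field F] {n₁ n₂ : ℕ}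

/-- The linear equivalence `z ↦ P *ᵥ (z ∘ e)` from `F^κ` to `F^ι` for a bijection `e : ι ≃ κ`. -/
noncomputable def vec {κ : Type} (e : ι ≃ κ) (P : Matrix.GeneralLinearGroup ι F) :
    (κ → F) ≃ₗ[F] (ι → F) :=
  (LinearEquiv.funCongrLeft F F e).trans (Matrix.GeneralLinearGroup.toLin.trans
    (LinearMap.GeneralLinearGroup.generalLinearEquiv F (ι → F)) P)

theorem vec_apply {κ : Type} (e : ι ≃ κ) (P : Matrix.GeneralLinearGroup ι F) (z : κ → F) :
    vec e P z = (P : Matrix ι ι F) *ᵥ (z ∘ e) := rfl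

/-- The tensor product of two coordinate vectors. -/
def tmul (x : Fin n₁ → F) (y : Fin n₂ → F) : Fin n₁ × Fin n₂ → F := fun a => x a.1 * y a.2

theorem tmul_apply (x : Fin n₁ → F) (y : Fin n₂ → F) (a : Fin n₁ × Fin n₂) :
    tmul x y a = x a.1 * y a.2 := rfl

theorem tmul_add_left (x x' : Fin n₁ → F) (y : Fin n₂ → F) :
    tmul (x + x') y = tmul x y + tmul x' y := by
  ext a
  simp [tmul, add_mul]

theorem tmul_add_right (x : Fin n₁ → F) (y y' : Fin n₂ → F) :
    tmul x (y + y') = tmul x y + tmul x y' := by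
  ext a
  simp [tmul, mul_add]

theorem tmul_smul_left (c : F) (x : Fin n₁ → F) (y : Fin n₂ → F) :
    tmul (c • x) y = c • tmul x y := by
  ext a
  simp [tmul, mul_assoc]

theorem tmul_smul_right (c : F) (x : Fin n₁ → F) (y : Fin n₂ → F) :
    tmul x (c • y) = c • tmul x y := by
  ext a
  simp [tmul, mul_left_comm]

/-- The tensor product as a bilinear map. -/
def tmulBilin (n₁ n₂ : ℕ) (F : Type*) [Field F] :
    (Fin n₁ → F) →ₗ[F] (Fin n₂ → F) →ₗ[F] (Fin n₁ × Fin n₂ → F) :=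
  LinearMap.mk₂ F tmul tmul_add_left tmul_smul_left tmul_add_right tmul_smul_right

theorem tmulBilin_apply (x : Fin n₁ → F) (y : Fin n₂ → F) : tmulBilin n₁ n₂ F x y = tmul x y := rfl

theorem tmul_single (i : Fin n₁) (j : Fin n₂) :
    tmul (Pi.single i (1 : F)) (Pi.single j (1 : F)) = Pi.single (i, j) 1 := by
  ext ⟨a, b⟩
  rw [tmul_apply]
  by_cases h1 : a = i
  · by_cases h2 : b = j
    · subst h1 h2
      simp
    · simp [h2]
  · simp [h1]

theorem tmul_eq_sum (x : Fin n₁ → F) (y : Fin n₂ → F) :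
    tmul x y = ∑ i, x i • tmul (Pi.single i 1) y := by
  ext ⟨a, b⟩
  rw [Finset.sum_apply]
  simp only [tmul_apply, Pi.smul_apply, smul_eq_mul]
  rw [Finset.sum_eq_single a]
  · simp
  · intro i _ hi
    simp [hi.symm]
  · simp

/-- Every vector is a sum of pure tensors with first factor in the standard basis. -/
theorem eq_sum_tmul (z : Fin n₁ × Fin n₂ → F) :
    z = ∑ i, tmul (Pi.single i 1) (fun j => z (i, j)) := by
  ext ⟨a, b⟩
  rw [Finset.sum_apply]
  simp only [tmul_apply]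
  rw [Finset.sum_eq_single a]
  · simp
  · intro i _ hi
    simp [hi.symm]
  · simp

/-- A pure tensor of `F^ι` relative to the tensor decomposition given by `e` and `P`. -/
noncomputable def pure (e : ι ≃ Fin n₁ × Fin n₂) (P : Matrix.GeneralLinearGroup ι F)
    (x : Fin n₁ → F) (y : Fin n₂ → F) : ι → F := vec e P (tmul x y)

theorem pure_eq (e : ι ≃ Fin n₁ × Fin n₂) (P : Matrix.GeneralLinearGroup ι F)
    (x : Fin n₁ → F) (y : Fin n₂ → F) :
    pure e P x y =
      (P : Matrix ι ι F) *ᵥ ((fun a : Fin n₁ × Fin n₂ => x a.1 * y a.2) ∘ e) := rfl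

/-- Pure tensors as a bilinear map. -/
noncomputable def pureBilin (e : ι ≃ Fin n₁ × Fin n₂) (P : Matrix.GeneralLinearGroup ι F) :
    (Fin n₁ → F) →ₗ[F] (Fin n₂ → F) →ₗ[F] (ι → F) :=
  (tmulBilin n₁ n₂ F).compr₂ (vec e P).toLinearMap

theorem pureBilin_apply (e : ι ≃ Fin n₁ × Fin n₂) (P : Matrix.GeneralLinearGroup ι F)
    (x : Fin n₁ → F) (y : Fin n₂ → F) : pureBilin e P x y = pure e P x y := rfl

theorem pure_add_left (e : ι ≃ Fin n₁ × Fin n₂) (P : Matrix.GeneralLinearGroup ι F)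
    (x x' : Fin n₁ → F) (y : Fin n₂ → F) : pure e P (x + x') y = pure e P x y + pure e P x' y := by
  simp only [← pureBilin_apply, map_add, LinearMap.add_apply]

theorem pure_smul_left (e : ι ≃ Fin n₁ × Fin n₂) (P : Matrix.GeneralLinearGroup ι F)
    (c : F) (x : Fin n₁ → F) (y : Fin n₂ → F) : pure e P (c • x) y = c • pure e P x y := by
  simp only [← pureBilin_apply, map_smul, LinearMap.smul_apply]

theorem pure_add_right (e : ι ≃ Fin n₁ × Fin n₂) (P : Matrix.GeneralLinearGroup ι F)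
    (x : Fin n₁ → F) (y y' : Fin n₂ → F) : pure e P x (y + y') = pure e P x y + pure e P x y' := by
  simp only [← pureBilin_apply, map_add]

theorem pure_smul_right (e : ι ≃ Fin n₁ × Fin n₂) (P : Matrix.GeneralLinearGroup ι F)
    (c : F) (x : Fin n₁ → F) (y : Fin n₂ → F) : pure e P x (c • y) = c • pure e P x y := by
  simp only [← pureBilin_apply, map_smul]

/-- Every vector of `F^ι` is a sum of pure tensors. -/
theorem eq_sum_pure (e : ι ≃ Fin n₁ × Fin n₂) (P : Matrix.GeneralLinearGroup ι F) (v : ι → F) :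
    v = ∑ i, pure e P (Pi.single i 1) (fun j => (vec e P).symm v (i, j)) := by
  have h := eq_sum_tmul ((vec e P).symm v)
  have h2 : v = vec e P ((vec e P).symm v) := (LinearEquiv.apply_symm_apply _ _).symm
  rw [h, map_sum] at h2
  exact h2

/-- Two linear maps agreeing on pure tensors agree. -/
theorem ext_pure {W : Type*} [AddCommGroup W] [Module F W] (e : ι ≃ Fin n₁ × Fin n₂)
    (P : Matrix.GeneralLinearGroup ι F) {f g : (ι → F) →ₗ[F] W}
    (h : ∀ x y, f (pure e P x y) = g (pure e P x y)) : f = g := by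
  ext1 v
  apply LinearMap.ext
  intro c
  rw [LinearMap.comp_apply, LinearMap.comp_apply]
  set w := LinearMap.single F (fun _ : ι => F) v c
  rw [eq_sum_pure e P w, map_sum, map_sum]
  exact Finset.sum_congr rfl fun i _ => h _ _

theorem kronecker_mulVec (a : Matrix (Fin n₁) (Fin n₁) F) (b : Matrix (Fin n₂) (Fin n₂) F)
    (x : Fin n₁ → F) (y : Fin n₂ → F) :
    (a ⊗ₖ b) *ᵥ tmul x y = tmul (a *ᵥ x) (b *ᵥ y) := by
  ext ⟨i, j⟩
  rw [tmul_apply]
  simp only [Matrix.mulVec, dotProduct, Matrix.kroneckerMap_apply, Fintype.sum_prod_type, tmul_apply]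
  rw [Finset.sum_mul_sum]
  refine Finset.sum_congr rfl fun k _ => Finset.sum_congr rfl fun l _ => ?_
  ring

/-- **Membership in the tensor product subgroup, on pure tensors.** -/
theorem mem_tensorProductSubgroup_iff (e : ι ≃ Fin n₁ × Fin n₂)
    (P g : Matrix.GeneralLinearGroup ι F) :
    g ∈ Cfsg.Geo.tensorProductSubgroup n₁ n₂ e P ↔
      ∃ (a : Matrix.GeneralLinearGroup (Fin n₁) F) (b : Matrix.GeneralLinearGroup (Fin n₂) F),
        ∀ x y, (g : Matrix ι ι F) *ᵥ pure e P x y =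
          pure e P ((a : Matrix (Fin n₁) (Fin n₁) F) *ᵥ x)
            ((b : Matrix (Fin n₂) (Fin n₂) F) *ᵥ y) := by
  -- how `P (k)_e P⁻¹` acts
  have hact : ∀ (k : Matrix.GeneralLinearGroup (Fin n₁ × Fin n₂) F) (z : Fin n₁ × Fin n₂ → F),
      ((P * Cfsg.Geo.glReindex e.symm k * P⁻¹ : Matrix.GeneralLinearGroup ι F) : Matrix ι ι F) *ᵥ
        vec e P z = vec e P ((k : Matrix _ _ F) *ᵥ z) := by
    intro k z
    rw [vec_apply, vec_apply, Units.val_mul, Units.val_mul, ← Matrix.mulVec_mulVec,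
      ← Matrix.mulVec_mulVec, Matrix.mulVec_mulVec (z ∘ e), ← Units.val_mul, inv_mul_cancel,
      Units.val_one, Matrix.one_mulVec]
    congr 1
    ext i
    have h1 : ((Cfsg.Geo.glReindex e.symm k : Matrix.GeneralLinearGroup ι F) : Matrix ι ι F) =
        (k : Matrix _ _ F).submatrix e e := rfl
    rw [h1]
    simp only [Matrix.mulVec, dotProduct, Matrix.submatrix_apply, Function.comp_apply]
    exact Equiv.sum_comp e (fun j => (k : Matrix _ _ F) (e i) j * z j)
  constructor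
  · rintro ⟨_, ⟨k, ⟨a, b, hk⟩, rfl⟩, rfl⟩
    refine ⟨a, b, fun x y => ?_⟩
    have h := hact k (tmul x y)
    rw [hk, kronecker_mulVec] at h
    exact h
  · rintro ⟨a, b, h⟩
    -- the Kronecker product as a unit
    have hinv1 : (a : Matrix (Fin n₁) (Fin n₁) F) ⊗ₖ (b : Matrix (Fin n₂) (Fin n₂) F) *
        (((a⁻¹ : Matrix.GeneralLinearGroup (Fin n₁) F) : Matrix _ _ F) ⊗ₖ
          ((b⁻¹ : Matrix.GeneralLinearGroup (Fin n₂) F) : Matrix _ _ F)) = 1 := by
      rw [← Matrix.mul_kronecker_mul, ← Units.val_mul, ← Units.val_mul, mul_inv_cancel,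
        mul_inv_cancel, Units.val_one, Units.val_one, Matrix.one_kronecker_one]
    have hinv2 : (((a⁻¹ : Matrix.GeneralLinearGroup (Fin n₁) F) : Matrix _ _ F) ⊗ₖ
          ((b⁻¹ : Matrix.GeneralLinearGroup (Fin n₂) F) : Matrix _ _ F)) *
        ((a : Matrix (Fin n₁) (Fin n₁) F) ⊗ₖ (b : Matrix (Fin n₂) (Fin n₂) F)) = 1 := by
      rw [← Matrix.mul_kronecker_mul, ← Units.val_mul, ← Units.val_mul, inv_mul_cancel,
        inv_mul_cancel, Units.val_one, Units.val_one, Matrix.one_kronecker_one]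
    let k : Matrix.GeneralLinearGroup (Fin n₁ × Fin n₂) F := ⟨_, _, hinv1, hinv2⟩
    refine ⟨_, ⟨k, ⟨a, b, rfl⟩, rfl⟩, ?_⟩
    apply Units.ext
    have h1 : Matrix.toLin' ((MulAut.conj P).toMonoidHom ((Cfsg.Geo.glReindex e.symm).toMonoidHom k) :
        Matrix.GeneralLinearGroup ι F).1 = Matrix.toLin' g.1 := by
      apply ext_pure e P
      intro x y
      rw [Matrix.toLin'_apply, Matrix.toLin'_apply, h x y]
      have h2 := hact k (tmul x y)
      have h3 : (k : Matrix _ _ F) = (a : Matrix (Fin n₁) (Fin n₁) F) ⊗ₖ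
        (b : Matrix (Fin n₂) (Fin n₂) F) := rfl
      rw [h3, kronecker_mulVec] at h2
      exact h2
    exact Matrix.toLin'.injective h1

/-- **The form on pure tensors.** -/
theorem form_pure {f : (ι → F) → (ι → F) → F} {f₁ : (Fin n₁ → F) → (Fin n₁ → F) → F}
    {f₂ : (Fin n₂ → F) → (Fin n₂ → F) → F} {e : ι ≃ Fin n₁ × Fin n₂}
    {P : Matrix.GeneralLinearGroup ι F} (h1 : Cfsg.Geo.IsBilinearForm f₁)
    (h2 : Cfsg.Geo.IsBilinearForm f₂) (hT : Cfsg.Geo.IsTensorFormStructure id f f₁ f₂ e P) :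
    ∃ c : F, c ≠ 0 ∧ ∀ x x' y y', f (pure e P x y) (pure e P x' y') = c * (f₁ x x' * f₂ y y') := by
  obtain ⟨c, hc, h⟩ := hT
  refine ⟨c, hc, fun x x' y y' => ?_⟩
  have key : ∀ {n : ℕ} {g : (Fin n → F) → (Fin n → F) → F}, Cfsg.Geo.IsBilinearForm g →
      ∀ u v, g u v = ∑ i, ∑ j, u i * v j * Cfsg.Geo.gramMatrix g i j := by
    intro n g hg u v
    let B : LinearMap.BilinForm F (Fin n → F) :=
      LinearMap.mk₂ F g hg.add_left (fun c x v => by rw [hg.smul_left, smul_eq_mul]) hg.add_right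
        (fun c v x => by rw [hg.smul_right, smul_eq_mul])
    have hB : ∀ u v, g u v = B u v := fun _ _ => rfl
    have hu : u = ∑ i, u i • (Pi.single i (1 : F) : Fin n → F) := by
      ext a
      simp [Finset.sum_apply, Pi.single_apply]
    have hv : v = ∑ i, v i • (Pi.single i (1 : F) : Fin n → F) := by
      ext a
      simp [Finset.sum_apply, Pi.single_apply]
    rw [hB]
    nth_rewrite 1 [hu]
    nth_rewrite 1 [hv]
    rw [map_sum B, LinearMap.sum_apply]
    refine Finset.sum_congr rfl fun i _ => ?_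
    rw [map_sum]
    refine Finset.sum_congr rfl fun j _ => ?_
    rw [map_smul, map_smul, LinearMap.smul_apply, smul_eq_mul, smul_eq_mul]
    show v j * (u i * g _ _) = _
    rw [Cfsg.Geo.gramMatrix]
    ring
  have h3 := h (tmul x y) (tmul x' y')
  rw [← vec_apply e P, ← vec_apply e P] at h3
  show f (vec e P (tmul x y)) (vec e P (tmul x' y')) = _
  rw [h3, key h1 x x', key h2 y y', Cfsg.Geo.formOfGram]
  congr 1
  rw [Finset.sum_mul_sum, Fintype.sum_prod_type]
  refine Finset.sum_congr rfl fun i _ => Finset.sum_congr rfl fun j _ => ?_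
  rw [Finset.sum_mul_sum, Fintype.sum_prod_type]
  refine Finset.sum_congr rfl fun k _ => Finset.sum_congr rfl fun l _ => ?_
  simp only [tmul_apply, Matrix.kroneckerMap_apply, id_eq]
  ring

end Cfsg.Agent.H883.Tensor
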